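import Cfsg.Agent.XT.SzL
import Cfsg.Agent.XT.Sz3
import Cfsg.Agent.Classical.Triangle
import Cfsg.Agent.Known.Aut.TriGrp
import Cfsg.Agent.Small.Auto
import Cfsg.Agent.Comp.Mat

/-! Odd local subgroups of the Suzuki group. -/

set_option autoImplicit false
set_option maxRecDepth 100000

namespace CF.XT.SzL

open Cfsg Subgroup CF.Comp CF.Bt CF.Recog CF.Loc CF.Even CF.LX CF.J23
open scoped commutatorElement

/-- the named elements -/
noncomputable def FZ : ℕ → Sz.S := hide (slp Sz.FS W2 39)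

theorem FZ_eq : FZ = slp Sz.FS W2 39 := hide_eq _

theorem FZ_lt {i : ℕ} (h : i < 39) : FZ i = Sz.FS i := by rw [FZ_eq, slp_lt _ _ h]

theorem exZ : Exact Suz.D NZ FZ cZ ⊤ :=
  exact_of_ge (FZ_eq ▸ Sz.repS.extend (k := 11) (by decide) (fun _ h => Sz.FS_eq ▸ evs_eq_one h) (slp_of_slpOK z1))
    (by decide) (fun _ _ => trivial) (card_top.trans_le Suz.card.le) z2

variable {G Ω : Type*} [Group G] [Finite G] [MulAction G Ω] {D : Dom Ω 1782} {g : ℕ → G} (hE : Exact D NZ g cZ ⊤)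
include hE

section
omit [Finite G]

theorem card : Nat.card G = 448345497600 := card_top.symm.trans (Exact.card_eq hE z0)

theorem eqZ : Eqv g eZ := eqv_sameW hE.reps (by decide) hE.faithful

theorem neZ : Nev g nZ := nev_difW hE.reps (by decide) 11

theorem ords : orderOf (g 38) = 7 ∧ orderOf (g 30) = 2 ∧ orderOf (g 48) = 3 ∧ orderOf (g 30 * g 48) = 3 ∧
    orderOf (g 13) = 5 ∧ orderOf (g 49) = 5 ∧ orderOf (g 50 * g 50) = 2 ∧ orderOf (g 51) = 2 ∧ orderOf (g 52) = 2 ∧
    orderOf (g 51 * g 52) = 3 ∧ orderOf (g 20) = 3 := by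
  have h := lall_iff.1 z4
  have k : ∀ {w p}, p.Prime → ordOK NZ 1782 11 w p = true → orderOf (ev g w) = p :=
    ordOK_spec hE (by decide) (by decide)
  simp only [List.forall_mem_cons] at h
  obtain ⟨h1, h2, h3, h4, h5, h6, h7, h8, h9, h10, h11, -⟩ := h
  have k1 := And.intro (k (by norm_num) h1) <| And.intro (k (by norm_num) h2) <| And.intro (k (by norm_num) h3) <|
    And.intro (k (by norm_num) h4) <| And.intro (k (by norm_num) h5) <| And.intro (k (by norm_num) h6) <|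
    And.intro (k (by norm_num) h7) <| And.intro (k (by norm_num) h8) <| And.intro (k (by norm_num) h9) <|
    And.intro (k (by norm_num) h10) (k (by norm_num) h11)
  simp only [ev_cons, ev_nil, mul_one] at k1
  exact k1

theorem e10 : g 38 * g 30 = g 30 * g 38 ∧ g 38 * g 48 = g 48 * g 38 ∧ g 51 * g 50 = g 50 * g 51 ∧
    g 52 * g 50 = g 50 * g 52 ∧ g 57 * g 58 * (g 57)⁻¹ * (g 58)⁻¹ = g 20 ∧ g 29 * g 20 * (g 29)⁻¹ = (g 20)⁻¹ ∧
    ev g [109, 109] = ev g [110] := by
  have h := eqs_spec (eqZ hE) z10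
  simp only [List.forall_mem_cons] at h
  obtain ⟨h1, h2, h3, h4, h5, h6, h7, -⟩ := h
  simp only [ev_cons, ev_nil, mul_one, ← mul_assoc] at h1 h2 h3 h4 h5 h6
  exact ⟨h1, h2, h3, h4, h5, h6, h7⟩

theorem c7 : Nat.card (clo g [[77]]) = 7 ^ 1 := by
  rw [clo_single, ev_single _ 38, Nat.card_zpowers, (ords hE).1]; rfl

omit hE in
theorem z6' : pOK NZ 1782 11 5 P5 2 = true := (and_of_rec z6).1

theorem p5 : Pc g 5 s5 ∧ Nat.card (clo g s5) = 5 ^ 2 :=
  (pOK_spec hE (by decide) (by decide) z6').imp_right And.left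

end

theorem syl7 (B : Sylow 7 G) (h : clo g [[77]] = B) :
    Nonempty (𝐂((B : Subgroup G)) ≃* Multiplicative (ZMod 7) × alternatingGroup (Fin 4)) ∧
      Nat.card 𝐍((B : Subgroup G)) = 504 := by
  have : Fact (Nat.Prime 7) := ⟨by norm_num⟩
  have c := cleOK_one hE (by decide) (by decide) (card hE) z3
  have d := h ▸ c7 hE
  rw [ev_single _ 38] at c
  rw [clo_single, ev_single _ 38] at h
  obtain ⟨o1, o2, o3, o4, -⟩ := ords hE
  obtain ⟨α, iα, rα⟩ := exists_cyc o1
  obtain ⟨β, iβ, rβ⟩ := exists_inj_of_equiv (Classical.IsTri.equiv_A4 ⟨o2, o3, o4⟩)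
  have l : β.range ≤ 𝐂₁(g 38) := rβ ▸ (closure_le _).2 (by
    rintro _ (rfl | rfl)
    exacts [mem_c1.2 (e10 hE).1.symm, mem_c1.2 (e10 hE).2.1.symm])
  obtain ⟨φ, i, r, -⟩ := exists_prod iα iβ (rα ▸ zpowers_le.2 fun x hx => mem_c1.1 (l hx)) Classical.center_A4
  have k : Nat.card (Multiplicative (ZMod 7) × alternatingGroup (Fin 4)) = 84 := by
    rw [Nat.card_prod, Classical.card_A4]; simp
  have e : φ.range = 𝐂((B : Subgroup G)) := by
    rw [← h, cent_zpowers]
    exact CF.Cod.range_eq_of_card i (r ▸ sup_le (rα ▸ zpowers_le.2 (mem_c1.2 rfl)) l) (c.trans k.ge)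
  refine ⟨⟨(MulEquiv.subgroupCongr e.symm).trans (MonoidHom.ofInjective i).symm⟩, ?_⟩
  obtain ⟨n, h1, h2⟩ := sylow_mod B
  have le := card_le_mul (A := 𝐍((B : Subgroup G))) le_rfl (h.le (mem_zpowers _)) d.le
    ((card_le_of_le inf_le_right).trans c)
  obtain ⟨j, hj⟩ := card_dvd_of_le (e.le.trans (centralizer_le_normalizer _))
  rw [← Nat.card_congr (MonoidHom.ofInjective i).toEquiv, k] at hj
  rw [card hE] at h1
  rw [hj] at h1 le ⊢
  have : j ≤ 7 := by omega
  interval_cases j <;> omega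

theorem cls5 : ∃ A B : Subgroup G, Nat.card A = 5 ∧ Nat.card B = 5 ∧
    (∀ x : G, A.map (MulAut.conj x).toMonoidHom ≠ B) ∧ ∀ C : Subgroup G, Nat.card C = 5 →
      ∃ x : G, C.map (MulAut.conj x).toMonoidHom = A ∨ C.map (MulAut.conj x).toMonoidHom = B := by
  classical
  obtain ⟨-, -, -, -, o1, o2, -⟩ := ords hE
  refine ⟨zpowers (g 13), zpowers (g 49), (Nat.card_zpowers _).trans o1, (Nat.card_zpowers _).trans o2,
    fun x e => ?_, fun C hC => ?_⟩
  · obtain ⟨i, hi, k⟩ := Finset.mem_image.1 (mem_zpowers_iff_mem_range_orderOf.1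
      (e.le (mem_map_of_mem _ (mem_zpowers (g 13)))))
    rw [o2, Finset.mem_range] at hi
    exact z11 i hi (fx_conj hE (by decide) (h := x) (by rw [ev_wpow, ev_single _ 49, ev_single _ 13, k]; rfl))
  · obtain ⟨u, hu, rfl⟩ := eq_zpowers_of_card (by norm_num) hC
    obtain ⟨w, hw, v, e⟩ := clOK_spec hE (by decide) (by norm_num) (a := 2) (m := 17933819904) (card hE) (by decide)
      z6' z7 hu
    refine ⟨v, ?_⟩
    rw [← (Cj.zpow v u).eq_map, e]
    rcases List.mem_pair.1 hw with rfl | rfl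
    exacts [.inl (congrArg _ (ev_single _ 13)), .inr (congrArg _ (ev_single _ 49))]

theorem syl5 {P : Subgroup G} (h : clo g s5 = P) : Nat.card P = 25 ∧ Nat.card 𝐍(P) = 600 ∧
    Nonempty (𝐍(P) ⧸ P.subgroupOf 𝐍(P) ≃* Multiplicative (ZMod 4) × Equiv.Perm (Fin 3)) := by
  subst h
  obtain ⟨pc, c⟩ := p5 hE
  have le : Nat.card 𝐍(clo g s5) ≤ 12 * (2 * 25) :=
    card_step hE (by decide) (by decide) pc (by decide +kernel) z9.1 le_rfl (by simp [U51])
      (card_step hE (by decide) (by decide) pc (by decide +kernel) z9.2 inf_le_left (fun x m => by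
        have := mem_c1.1 m.2
        rw [ev_single _ 49] at this
        have k : Commute x (g 49) := this
        simp only [U52, List.forall_mem_cons, ev_cons, ev_nil]
        exact ⟨Commute.one_right _, k.mul_right (.one_right _), k.mul_right (k.mul_right (.one_right _)),
          k.mul_right (k.mul_right (k.mul_right (.one_right _))),
          k.mul_right (k.mul_right (k.mul_right (k.mul_right (.one_right _)))), by simp⟩)
        ((card_le_of_le fun x m => mem_cent_clo fun w hw => by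
          rcases List.mem_pair.1 hw with rfl | rfl
          exacts [mem_c1.1 m.2, mem_c1.1 m.1.2]).trans (cleOK_spec hE (by decide) (by decide) (card hE) z5)))
  obtain ⟨-, -, -, -, -, -, o1, o2, o3, o4, -⟩ := ords hE
  have o : orderOf (g 50) = 2 ^ (1 + 1) := orderOf_eq_prime_pow
    (fun k => by rw [pow_one, pow_two] at k; simp [k] at o1)
    (by rw [pow_succ, pow_mul, pow_one, pow_two (g 50), ← o1, pow_orderOf_eq_one])
  obtain ⟨α, iα, rα⟩ := exists_cyc (m := 4) o
  obtain ⟨β, iβ, rβ⟩ := exists_inj_of_equiv ((o4 ▸ Invol.nonempty_closure_pair_equiv_dihedral o2 o3).elim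
    fun a => Known.dihedral_equiv_perm.map a.trans)
  obtain ⟨φ, i, r, -⟩ := exists_prod iα iβ (rα ▸ zpowers_le.2 fun x hx => mem_c1.1 (((closure_le _).2 (by
    rintro _ (rfl | rfl)
    exacts [mem_c1.2 (e10 hE).2.2.1, mem_c1.2 (e10 hE).2.2.2.1]) : _ ≤ 𝐂₁(g 50)) (rβ.le hx)))
    (eq_bot_iff.2 fun x hx => mem_bot.2 ((by decide : ∀ x : Equiv.Perm (Fin 3), (∀ y, y * x = x * y) → x = 1) x
      (mem_center_iff.1 hx)))
  have m := clo_le.1 ((eqZ hE).nrmAll z8)
  simp only [List.forall_mem_cons, ev_cons, ev_nil, mul_one] at m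
  have l : φ.range ≤ 𝐍(clo g s5) := r ▸ sup_le (rα ▸ zpowers_le.2 m.1) (rβ ▸ (closure_le _).2 (by
    rintro _ (rfl | rfl)
    exacts [m.2.1, m.2.2.1]))
  have k : Nat.card (Multiplicative (ZMod 4) × Equiv.Perm (Fin 3)) = 24 := by simp [Fintype.card_perm]; rfl
  let ψ := (QuotientGroup.mk' ((clo g s5).subgroupOf 𝐍(clo g s5))).comp (φ.codRestrict _ fun x => l ⟨x, rfl⟩)
  have j : Function.Injective ψ := (injective_iff_map_eq_one ψ).2 fun x hx => by
    have a := (clo g s5).orderOf_dvd_natCard (x := φ x)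
      ((QuotientGroup.eq_one_iff (N := (clo g s5).subgroupOf 𝐍(clo g s5)) _).1 hx)
    have b := _root_.orderOf_dvd_natCard x
    rw [orderOf_injective φ i, c] at a
    rw [k] at b
    exact orderOf_eq_one_iff.1 (Nat.eq_one_of_dvd_coprimes (by decide) a b)
  have e := card_eq_card_quotient_mul_card_subgroup ((clo g s5).subgroupOf 𝐍(clo g s5))
  have ge := Nat.card_le_card_of_injective ψ j
  rw [card_sub_of le_normalizer, c] at e
  exact ⟨c, by omega, ⟨(MulEquiv.ofBijective ψ (j.bijective_of_nat_card_le (by omega))).symm⟩⟩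

omit [Finite G] in
theorem inY {w : List ℕ} (h : inL eZ wY w = true) : ev g w ∈ zpowers (g 20) := by
  obtain ⟨u, hu, k⟩ := inL_spec (eqZ hE) h
  rw [k, ← ev_single g 20, ← clo_single]
  exact ev_mem_clo_of_wordIn ((by decide +kernel : ∀ u ∈ wY, wordIn [[41]] u = true) u hu)

theorem cenY {Y : Subgroup G} (h : zpowers (g 20) = Y) [(Y.subgroupOf 𝐂(Y)).Normal] (K : Type) [Field K] [Fintype K]
    (hK : Fintype.card K = 9) : (IsQuasisimple 𝐂(Y) ∧ Nonempty (𝐂(Y) ⧸ Y.subgroupOf 𝐂(Y) ≃* PSU 4 K 3) ∧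
      (𝐂(Y)).relIndex 𝐍(Y) = 2) ∧ Nat.card 𝐂(Y) = 9797760 := by
  subst h
  have o := (ords hE).2.2.2.2.2.2.2.2.2.2
  have c := cleOK_one hE (by decide) (by decide) (card hE) z12
  have m := clo_le.1 ((eqZ hE).comAll z13)
  rw [clo_single, ev_single _ 20, List.forall_mem_cons, List.forall_mem_cons, ev_single _ 57, ev_single _ 58] at m
  rw [ev_single _ 20, ← cent_zpowers] at c
  have y3 : g 20 ^ 3 = 1 := o ▸ pow_orderOf_eq_one _
  obtain ⟨φ, i, -⟩ := U43.exists_emb hK (g := fun i => QuotientGroup.mk' ((zpowers (g 20)).subgroupOf 𝐂(zpowers (g 20)))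
    (sub _ (Bt.evs_mem m.2.2) i)) (fun r hr => by
      rw [← map_ev]
      refine (QuotientGroup.eq_one_iff _).2 (mem_subgroupOf.2 ?_)
      rw [coe_ev_sub, ev_evs]
      exact inY hE (lall_iff.1 z14 r hr)) fun k => by
      have n := outL_spec (neZ hE) z15.1
      simp only [wY, List.forall_mem_cons, ev_cons, ev_nil, mul_one] at n
      rcases zp3 y3 (mem_subgroupOf.1 ((QuotientGroup.eq_one_iff _).1 k)) with k | k | k
      exacts [n.1 ((mul_one _).symm.trans k), n.2.1 ((mul_one _).symm.trans k), n.2.2.1 ((mul_one _).symm.trans k)]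
  have e := card_eq_card_quotient_mul_card_subgroup ((zpowers (g 20)).subgroupOf 𝐂(zpowers (g 20)))
  have ge := Nat.card_le_card_of_injective φ i
  rw [card_sub_of (le_centralizer _), Nat.card_zpowers, o] at e
  have k := U43.card_PSU hK
  let ι := MulEquiv.ofBijective φ (i.bijective_of_nat_card_le (by omega))
  have := Cfsg.Agent.S0283.result (show Fintype.card K = 3 ^ 2 from hK) 4 (by norm_num) (by norm_num)
  refine ⟨⟨quasisimple_of (fun x hx => ⟨mem_center_iff.2 fun b => Subtype.ext (b.2 _ hx).symm, ?_⟩) 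
    (ι.isSimpleGroup_congr.1 this)    (by rw [← Nat.card_congr ι.toEquiv, k]; norm_num), ⟨ι.symm⟩, ?_⟩, by omega⟩
  · obtain ⟨n, hn⟩ := hx
    rw [show x = ⁅(⟨_, m.1⟩ : 𝐂(zpowers (g 20))), ⟨_, m.2.1⟩⁆ ^ n from
      Subtype.ext (hn.symm.trans (congrArg (· ^ n) (e10 hE).2.2.2.2.1.symm))]
    exact zpow_mem (commutator_mem_commutator (mem_top _) (mem_top _)) _
  · have : Fact (Nat.Prime 3) := ⟨Nat.prime_three⟩
    refine ((Nat.dvd_prime Nat.prime_two).1 (Small.autIdx_dvd_of_card_prime ((Nat.card_zpowers _).trans o))).resolve_left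
      fun k => neZ hE _ _ z15.2 ?_
    have := relIndex_eq_one.1 k (mem_normalizer_of_cj_le (g := g 29) (map_le_iff_le_comap.2 (zpowers_le.2 (show g 29 * g 20 * (g 29)⁻¹ ∈ _
      from (e10 hE).2.2.2.2.2.1 ▸ inv_mem (mem_zpowers _))))) _ (mem_zpowers _)
    simp only [ev_cons, ev_nil, mul_one]
    exact this.symm

omit [Finite G] in
theorem pA : Pc g 3 sA ∧ Nat.card (clo g sA) = 3 ^ 5 :=
  (pOK_spec hE (by decide) (by decide) (show pOK NZ 1782 11 3 PA 5 = true from (and_of_rec z19.1).1)).imp_right And.left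

omit [Finite G] in
theorem cA_le : Nat.card 𝐂(clo g [[41], [107], [109], [111]]) ≤ 243 :=
  cleOK_spec hE (by decide) (by decide) (card hE) z17

theorem cenA : 𝐂(clo g sA) = clo g sA :=
  (eq_of_le_of_card_ge ((eqZ hE).comAll z19.2.1) ((card_le_of_le (centralizer_le (clo_mono (by decide +kernel)))).trans
    ((cA_le hE).trans (pA hE).2.ge))).symm

theorem nA_le : Nat.card 𝐍(clo g sA) ≤ 22 * (20 * (17 * (2 * 243))) := by
  have pc := (pA hE).1
  refine card_step hE (by decide) (by decide) pc (by decide +kernel) z20.1 le_rfl (by simp [UA1])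
    (card_step hE (by decide) (by decide) pc (by decide +kernel) z20.2 inf_le_left
      (fun x m => by simpa [UA2] using mem_c1.1 m.2) ?_)
  refine (card_le_of_conj_mem (x := ev g [109]) (LA3.map (ev g)) (s := 2 * 243) (fun x m =>
    (List.mem_cons.1 (step_spec hE (by decide) (by decide) pc (by decide +kernel) z21.1 (mem_inf.1 (mem_inf.1 m).1).1
      (by simpa [UA3] using And.intro (mem_c1.1 m.1.2) (mem_c1.1 m.2)))).resolve_left fun k =>
        not_tw hE (by decide) (by decide) z18 (h := x) fun i => ?_) ?_).trans_eq (by rw [List.length_map]; rfl)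
  swap
  refine card_step hE (by decide) (by decide) pc (by decide +kernel) z21.2 (inf_le_left.trans (inf_le_left.trans inf_le_left)) (fun x m => ?_)
    ((card_le_of_le fun x m => mem_cent_clo fun w hw => ?_).trans (cA_le hE))
  rotate_right
  · rcases i with _ | _ | _ | i
    exacts [mem_c1.1 m.1.2, mem_c1.1 m.2, mul_inv_eq_iff_eq_mul.1 (k.trans (e10 hE).2.2.2.2.2.2),
      (mul_one _).trans (one_mul _).symm]
  · have a : Commute x (ev g [41]) := mem_c1.1 m.1.1.2
    have b : Commute x (ev g [107]) := mem_c1.1 m.1.2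
    have c : Commute x (ev g [109]) := mem_c1.1 m.2
    simp only [UA4, List.forall_mem_cons, show ev g [41, 107, 109] = ev g [41] * (ev g [107] * ev g [109]) by
      simp only [ev_cons, ev_nil, mul_one]]
    exact ⟨Commute.one_right _, a.mul_right (b.mul_right c), by simp⟩
  · simp only [List.mem_cons, List.not_mem_nil, or_false] at hw
    rcases hw with rfl | rfl | rfl | rfl
    exacts [mem_c1.1 m.1.1.1.2, mem_c1.1 m.1.1.2, mem_c1.1 m.1.2, mem_c1.1 m.2]

omit hE in
theorem repsM11 : HasReps Spor.M11 11 N11 7 :=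
  ⟨_, _, _, sub _ (Bt.evs_mem fun w _ => ev_mem Mat.iMem w), reps_sub (reps_sel Mat.iReps z24.1 z24.2) _,
    fun _ h => Subtype.ext (evs_eq_one h)⟩

theorem quotA : Spor.IsoM11 (𝐍(clo g sA) ⧸ (clo g sA).subgroupOf 𝐍(clo g sA)) := by
  classical
  have le := nA_le hE
  have l := (eqZ hE).nrmAll z22.2
  have ge := ge_card hE z22.1 fun _ => ev_mem_clo g
  have e : clo g (cgens cN) = 𝐍(clo g sA) := eq_of_le_of_card_ge l (by
    obtain ⟨j, hj⟩ := card_dvd_of_le l
    rcases Nat.lt_or_ge j 2 with h | h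
    · interval_cases j <;> omega
    · have := Nat.mul_le_mul_left (Nat.card (clo g (cgens cN))) h
      omega)
  obtain ⟨ψ, s, k⟩ := md_surj hE.reps z23.1 e repsM11 Mat.card_M11.le
  have m : ∀ x : 𝐍(clo g sA), (x : G) ∈ clo g sA → ψ x = 1 := fun x hx => (k x).2 (fix_of_closed hE.reps z23.2 hx)
  let ι := QuotientGroup.quotientKerEquivOfSurjective ψ s
  refine ⟨(QuotientGroup.quotientMulEquivOfEq (ker_eq_of_card le_normalizer m ?_).symm).trans ι⟩
  have c := card_eq_card_quotient_mul_card_subgroup ψ.ker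
  obtain ⟨j, hj⟩ := card_dvd_of_le (show (clo g sA).subgroupOf 𝐍(clo g sA) ≤ ψ.ker from m)
  rw [Nat.card_congr ι.toEquiv, Mat.card_M11] at c
  rw [card_sub_of le_normalizer] at hj
  rw [(pA hE).2] at hj ⊢
  omega

theorem syl3 {X : Subgroup G} (h : zpowers (g 20) = X) (P : Sylow 3 𝐍(X)) :
    ¬ 3 ∣ ((P : Subgroup 𝐍(X)).map (𝐍(X)).subtype).index ∧ ∃ A : Subgroup G,
      A ≤ (P : Subgroup 𝐍(X)).map (𝐍(X)).subtype ∧ IsElementaryAbelian 3 A ∧ Nat.card A = 3 ^ 5 ∧ 𝐂(A) = A ∧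
      ∃ _ : (A.subgroupOf 𝐍(A)).Normal, Spor.IsoM11 (𝐍(A) ⧸ A.subgroupOf 𝐍(A)) := by
  have : Fact (Nat.Prime 3) := ⟨Nat.prime_three⟩
  have c : Nat.card 𝐍(X) = Nat.card ((P : Subgroup 𝐍(X)).map (𝐍(X)).subtype) * (P : Subgroup 𝐍(X)).index := by
    rw [card_map_of_injective (subtype_injective _), card_mul_index]
  refine ⟨fun k => ?_, ?_⟩
  · have : (X.subgroupOf 𝐂(X)).Normal := ⟨fun x hx b => by
      rwa [show b * x * b⁻¹ = x from Subtype.ext (conj_eq_iff.2 (b.2 _ hx).symm)]⟩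
    let _ := Fintype.ofFinite (GaloisField 3 2)
    have d := card_dvd_of_le (centralizer_le_normalizer (X : Set G))
    rw [(cenY hE h (GaloisField 3 2) (Nat.card_eq_fintype_card.symm.trans (GaloisField.card 3 2 two_ne_zero))).2, c] at d
    have := mul_dvd_mul ((Nat.Coprime.pow_left 7 ((Nat.Prime.coprime_iff_not_dvd Nat.prime_three).2
      P.not_dvd_index)).dvd_of_dvd_mul_right ((by decide : 3 ^ 7 ∣ 9797760).trans d)) k
    rw [card_mul_index, card hE] at this
    exact absurd this (by decide)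
  · obtain ⟨x, -, k⟩ := exists_conj_le (map_subtype_le _) Nat.prime_three c P.not_dvd_index (Q := clo g sA)
      ((cenA hE).ge.trans ((centralizer_le (h ▸ zpowers_le.2 (ev_single g 20 ▸ ev_mem_clo g (by decide +kernel)))).trans
        (centralizer_le_normalizer _))) ((pA hE).1.pgroup (by decide))
    obtain ⟨b, hE'⟩ := exact_equiv hE (MulAut.conj x)
    exact ⟨_, clo_le.2 fun w hw => (map_ev (MulAut.conj x).toMonoidHom g w) ▸ k _ (ev_mem_clo g hw),
      ⟨le_centralizer_iff_isMulCommutative.1 (cenA hE').ge, (eqZ hE').pow_eq_one z19.2.1 z19.2.2⟩, (pA hE').2,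
      cenA hE', inferInstance, quotA hE'⟩

theorem conjY (hn : 𝐂₁(g 0) ≤ 𝐍(clo g Sz.sQ)) (hc : Nat.card 𝐂₁(g 0) = 3317760) {x : G} (hx : x ∈ 𝐂₁(g 0))
    (o : orderOf x = 3) (h : Nat.card ↥⁅clo g Sz.sQ, zpowers x⁆ = 8) : ∃ m, m * x * m⁻¹ = g 20 := by
  obtain ⟨pc, c, -⟩ := pOK_spec hE (by decide) (by decide) z25.1
  have l := (eqZ hE).comAll z25.2
  rw [clo_single, ev_single _ 0, cent_zpowers] at l
  obtain ⟨u, hu, k⟩ := exists_conj_mem l Nat.prime_three (m := 40960) (by rw [hc, show Nat.card (clo g s3) = _ from c]; rfl)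
    (by decide) hx (a := 1) (by rw [pow_one, ← o, pow_orderOf_eq_one])
  obtain ⟨w, e, b⟩ := pc.all (by decide) z26 _ k
  simp only [bor_iff] at b
  rcases b with b | b | b
  · rw [orderOf_of_conj e.symm, leq_iff.1 b, ev_nil, orderOf_one] at o
    cases o
  · obtain ⟨p, -, b⟩ := lany_iff.1 b
    have := eqZ hE _ _ (and_of_rec b).2
    rw [ev_cjW, e, ev_single _ 20] at this
    exact ⟨ev g p.2 * u, by rw [← this]; group⟩
  · have := ge_card hE b (H := ⁅clo g Sz.sQ, zpowers x⁆.map (MulAut.conj u).toMonoidHom) fun v hv => by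
        simp only [big, cgens, lapp_eq, lmap_eq, List.append_nil, List.mem_map] at hv
        obtain ⟨q, hq, rfl⟩ := hv
        refine ⟨_, commutator_mem_commutator (conj_mem_of_mem_normalizer (inv_mem (hn hu)) (ev_mem_clo g hq))
          (mem_zpowers x), ?_⟩
        rw [ev_cmW, e, commutatorElement_def]
        show u * _ * u⁻¹ = _
        group
    rw [card_map_equiv, h] at this
    omega

omit hE [MulAction G Ω] in
theorem bridge {z : G} (hz : orderOf z = 2) (Q : Subgroup 𝐂₁(z)) [Q.Normal] (hF : generalizedFittingSubgroup 𝐂₁(z) = Q)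
    (hQ : IsExtraspecial 2 Q) (hc : Nat.card Q = 2 ^ 7) {φ : Sz.S ≃* G} (k : φ (Sz.FS 0) = z) {X : Subgroup 𝐂₁(z)}
    (hX : Nat.card X = 3) (h : Nat.card ↥⁅Q, X⁆ = 8) : ∃ (b : MulAction G (Via Suz.ψ)) (g : ℕ → G),
      @Exact G _ _ b _ Suz.D NZ g cZ ⊤ ∧ zpowers (g 20) = X.map (𝐂₁(z)).subtype := by
  obtain ⟨b, hE⟩ := exact_equiv exZ φ
  let ψ := φ.toMonoidHom.comp (𝐂₁(Sz.FS 0)).subtype
  have i : Function.Injective ψ := φ.injective.comp (subtype_injective _)
  have r : ψ.range = 𝐂₁(z) := le_antisymm (by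
      rintro _ ⟨m, rfl⟩
      rw [mem_c1, ← k]
      exact (map_mul φ _ _).symm.trans ((congrArg φ (mem_c1.1 m.2)).trans (map_mul φ _ _)))
    fun x hx => ⟨⟨φ.symm x, mem_c1.2 (φ.injective (by
      rw [map_mul, map_mul, k, φ.apply_symm_apply, mem_c1.1 hx]))⟩, φ.apply_symm_apply x⟩
  have e : Sz.Q0.map ψ = clo (fun i => φ (FZ i)) Sz.sQ := by
    rw [map_clo, clo, clo]
    exact congrArg _ (Set.image_congr fun w hw => ev_congr (m := 35) (fun i hi =>
      congrArg φ ((Sz.F_coe hi).trans (FZ_lt (by omega)).symm)) ((by decide +kernel : ∀ w ∈ Sz.sQ, ∀ x ∈ w, x ≤ 2 * 35) w hw))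
  have n : 𝐂₁(z) ≤ 𝐍(Sz.Q0.map ψ) := r.ge.trans (by
    rintro _ ⟨m, rfl⟩
    exact le_normalizer_map _ (mem_map_of_mem _ (Sz.lq.nor' (Sz.ac m))))
  have cq := card_map_of_injective (K := Q) (𝐂₁(z)).subtype_injective
  have q : Sz.Q0.map ψ = Q.map (𝐂₁(z)).subtype := eq_of_le_of_card_ge
    ((le_pCoreOf ((Sz.pQ.1.pgroup two_ne_zero).map _) ((map_le_range _ _).trans r.le) n).trans (lq_of_fstar hz (by rw [hF])
      (isExtraspecial_of_equiv hQ (Q.equivMapOfInjective _ (subtype_injective _)))).2.ge)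
    (by rw [cq, hc, card_map_of_injective i, Sz.pQ.2.1])
  obtain ⟨x, o, hx⟩ := eq_zpowers_of_card Nat.prime_three ((card_map_of_injective (𝐂₁(z)).subtype_injective).trans hX)
  have g0 : φ (FZ 0) = z := FZ_lt (i := 0) (by decide) ▸ k
  obtain ⟨m, hm⟩ := conjY hE (x := x) (by rwa [g0, ← e]) (by
      rw [g0, ← r, ← Nat.card_congr (MonoidHom.ofInjective i).toEquiv, Sz.cardM])
    (g0 ▸ map_subtype_le X (hx.ge (mem_zpowers x))) o
    (by rw [← e, q, ← hx, ← map_commutator, card_map_of_injective (subtype_injective _), h])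
  obtain ⟨b', hE'⟩ := exact_equiv hE (MulAut.conj m⁻¹)
  exact ⟨b', _, hE', by rw [hx, ← hm, MulAut.conj_apply]; congr 1; group⟩

end CF.XT.SzL
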