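import Cfsg.Agent.XT.Co3
import Cfsg.Agent.XT.CoY
import Cfsg.Agent.Bt.Xc.CSuz
import Cfsg.Agent.Bt.Xc.CJ2
import Cfsg.Agent.Known.Mon.C3B
import Cfsg.Agent.Comp.J2.Main
import Cfsg.Agent.Known.Aut.TriGrp

/-! Odd local subgroups of the first Conway group. -/

set_option autoImplicit false
set_option maxRecDepth 100000

namespace CF.XT.CoO

open Cfsg Subgroup CF.Comp CF.Bt CF.Loc CF.Even CF.LX CF.Known.Mon CF.Schur.Pc CF.Schur.Co1 CF.XT.Co CF.J23

/-- the named elements -/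
noncomputable def GX : ℕ → S := hide (app 13 OutCo1.f (evs OutCo1.f WX))

theorem bmX : BM rho MX GX := by
  have h : BM rho (lapp MO3 MO10) OutCo1.f := (bm_co OutCo1.xCo y1.1 y1.2.1).slp (m := 3) (by decide +kernel)
    (fun i hi => congrArg QuotientGroup.mk (Leech.coEl_ge' i hi)) rfl y1.2.2.1 (allFrom_zero.1 y1.2.2.2)
  rw [GX, hide_eq]
  exact h.app (by decide +kernel) (h.new (by decide +kernel) y2.1 (allFrom_zero.1 y2.2))

theorem GX_add (i : ℕ) : GX (13 + i) = ev OutCo1.f (nth [] WX i) := by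
  rw [GX, hide_eq, app, if_neg (by omega), Nat.add_sub_cancel_left]; rfl

theorem lnk_spec {u w : List ℕ} (h : lnk u w = true) : ev FS u = ev GX w :=
  inj ((bmS.ev u).trans ((congrArg _ (beq_iff.1 h)).trans (bmX.ev w).symm))

theorem cardT {w : List ℕ} {fw kg : List (List ℕ)} {T : Tr} {m : ℕ}
    (h : stdT (lapp OutCo1.X OutCo1.X1) 98280 17 OutCo1.ap (OutCo1.M :: OutCo1.t) [w] [] fw kg T m = true) :
    Nat.card 𝐂₁(ev OutCo1.f w) ≤ m :=
  card_le_of_stdT OutCo1.model.1 (by decide) (by decide) OutCo1.model.2.2 h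
    (fun _ hg _ hw => List.mem_singleton.1 hw ▸ mem_c1.1 hg) fun _ _ _ h => nomatch h

variable {G : Type*} [Group G]

theorem zp3 {a x : G} (h : orderOf a = 3) (hx : x ∈ zpowers a) : x = 1 ∨ x = a ∨ x = a * a := by
  classical
  obtain ⟨i, hi, rfl⟩ := Finset.mem_image.1 ((orderOf_pos_iff.1 (h ▸ three_pos)).mem_zpowers_iff_mem_range_orderOf.1 hx)
  rw [h, Finset.mem_range] at hi
  interval_cases i <;> simp [pow_two]

/-- the facts about the named elements -/
structure Md (g : ℕ → G) : Prop where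
  bm : ∃ ρ : G →* Matrix (Fin 24) (Fin 24) (ZMod 2), BM ρ MX g ∧ Function.Injective ρ
  cz : Nat.card 𝐂₁(ev g [27]) = 89181388800
  cc : ∀ p ∈ [([45], 1345036492800), ([71], 3024000), ([91], 17640), ([121, 123], 544320)],
    Nat.card 𝐂₁(ev g p.1) ≤ p.2
  nq : 𝐂₁(ev g [27]) ≤ 𝐍(clo g sq)
  cq : Nat.card (clo g sq) = 2 ^ 9

theorem z_eq : FS 0 = ev GX [27] := (eS1 0).symm.trans (lnk_spec (allFrom_zero.1 y4.1 8 (by decide)))

theorem mdX : Md GX := by
  have e : Q0.map (𝐂₁(FS 0)).subtype = clo GX sq := by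
    have k : ∀ i < 9, (𝐂₁(FS 0)).subtype (ev F (nth [] sQ i)) = ev GX (nth [] sq i) := fun i hi =>
      (ev_coe ((by decide : ∀ i < 9, ∀ x ∈ nth [] sQ i, x ≤ 2 * 38) i hi)).trans (lnk_spec (allFrom_zero.1 y4.1 i hi))
    refine le_antisymm (map_le_iff_le_comap.2 (clo_le.2 fun w hw => ?_)) (clo_le.2 fun w hw => ?_) <;>
      obtain ⟨i, hi, rfl⟩ := exists_nth_of_mem [] hw
    · exact mem_comap.2 (k i hi ▸ ev_mem_clo _ (nth_mem [] hi))
    · exact k i hi ▸ mem_map_of_mem _ (ev_mem_clo _ (nth_mem [] hi))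
  refine ⟨⟨_, bmX, inj⟩, z_eq ▸ cardM, ?_, ?_, ?_⟩
  · simp only [List.forall_mem_cons]
    refine ⟨?_, ?_, ?_, ?_, by simp⟩
    · rw [ev_single _ 22, GX_add 9]; exact cardT SectSuz.x0
    · rw [ev_single _ 35, GX_add 22]; exact cardT SectJ2.x0
    · rw [← card_cent_conj (ev GX [103]), ← ev_cjW, bmX.same inj _ _ y4.2.2, ev_single _ 52, GX_add 39]
      exact cardT y15
    · have := card_map_theta mk_one (mem_c1.2 (Leech.negCo_comm (Leech.permHom (ev Leech.M.m C3B.w))).symm)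
      rw [C3B.main.2.2] at this
      rw [← lnk_spec y4.2.1, ev_pm (by decide +kernel)]
      refine (card_le_of_le (K := Subgroup.map mk 𝐂₁(Leech.permHom (ev Leech.M.m C3B.w))) fun x hx => ?_).trans (by omega)
      obtain ⟨x, rfl⟩ := mk_surj x
      exact mem_map_of_mem _ (mem_c1.2 (comm_of_pm (by rw [C3B.main.1.ord]; decide) (mk_eq.1
        ((map_mul mk _ _).trans ((mem_c1.1 hx).trans (map_mul mk _ _).symm)))))
  · rw [← z_eq, ← e]
    exact fun x hx => le_normalizer_map _ (mem_map_of_mem _ (lq.nor' (ac ⟨x, hx⟩)))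
  · rw [← e, card_map_of_injective (subtype_injective _), cardQ]

theorem Md.map {K : Type*} [Group K] {g : ℕ → G} (h : Md g) (φ : G ≃* K) : Md fun i => φ (g i) := by
  have e : ∀ w, ev (fun i => φ (g i)) w = φ (ev g w) := fun w => (map_ev φ.toMonoidHom g w).symm
  have c : ∀ x, 𝐂₁(φ x) = (𝐂₁(x)).map φ.toMonoidHom := fun x => Subgroup.ext fun y => by
    rw [mem_map_equiv, mem_c1, mem_c1, ← φ.injective.eq_iff, map_mul, map_mul, φ.apply_symm_apply]
  obtain ⟨ρ, b, i⟩ := h.bm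
  refine ⟨⟨ρ.comp φ.symm.toMonoidHom, BM.map (φ := φ.toMonoidHom) (by convert b; ext; simp),
    i.comp φ.symm.injective⟩, ?_, fun p hp => ?_, ?_, ?_⟩
  · rw [e, c, card_map_equiv, h.cz]
  · rw [e, c, card_map_equiv]; exact h.cc p hp
  · rw [e, c]
    exact (map_mono h.nq).trans (map_clo φ.toMonoidHom g sq ▸ le_normalizer_map _)
  · exact (map_clo φ.toMonoidHom g sq ▸ card_map_equiv φ _).trans h.cq

namespace Md

variable [Finite G] {g : ℕ → G} (h : Md g)
include h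

section
omit [Finite G]

theorem eq : Eqv g eX := h.bm.elim fun _ k => eqv_bsame k.1 k.2

theorem ne : Nev g nX := h.bm.elim fun _ k => nev_bne k.1

theorem ord {w : List ℕ} {p : ℕ} (hp : p.Prime) (k : oX w p = true) : orderOf (ev g w) = p :=
  have := Fact.mk hp
  orderOf_eq_prime ((ev_wpow g w p).symm.trans (h.eq _ _ (and_of_rec k).1)) (h.ne _ _ (and_of_rec k).2)

theorem com {ws : List (List ℕ)} {w : List ℕ} (k : comAll eX ws [w] = true) : clo g ws ≤ 𝐂₁(ev g w) := by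
  rw [← cent_zpowers, ← clo_single]; exact h.eq.comAll k

end

theorem conj3 {x : G} (hx : x ∈ 𝐂₁(ev g [27])) (o : orderOf x = 3)
    (c : Nat.card ↥⁅clo g sq, zpowers x⁆ = 8) : ∃ u, u * x * u⁻¹ = ev g [45] := by
  obtain ⟨ρ, b, i⟩ := h.bm
  obtain ⟨k1, -, k2, -, -, k3, -, k4, -, k5, -⟩ := y6
  have pc := h.eq.pc k1
  exact syl_conj b i Nat.prime_three y8 pc (h.com k2) (m := 367001600)
    (by rw [h.cz, card_pc b (by decide) pc k3 k5]; rfl) (by decide) h.nq
    (fun q hq => ev_mem_clo_of_wordIn (lall_iff.1 k4 q hq)) hx o ((cl_le _ _).trans_lt (by omega))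

theorem conj5 {x : G} (hx : x ∈ 𝐂₁(ev g [27])) (o : orderOf x = 5)
    (c : Nat.card ↥(clo g sq ⊓ 𝐂₁(x)) = 32) : ∃ u, u * x * u⁻¹ = ev g [71] := by
  obtain ⟨ρ, b, i⟩ := h.bm
  obtain ⟨-, k1, -, k2, -, -, k3, -, k4, -, k5⟩ := y6
  have pc := h.eq.pc k1
  have := cl_card (clo g sq) x
  rw [h.cq, c] at this
  exact syl_conj b i (by norm_num) y9 pc (h.com k2) (m := 3567255552)
    (by rw [h.cz, card_pc b (by decide) pc k3 k5]; rfl) (by decide) h.nq
    (fun q hq => ev_mem_clo_of_wordIn (lall_iff.1 k4 q hq)) hx o (by omega)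

theorem suz {Y : Subgroup G} (e : zpowers (ev g [45]) = Y) [(Y.subgroupOf 𝐂(Y)).Normal] :
    IsQuasisimple 𝐂(Y) ∧ Spor.IsoSuz (𝐂(Y) ⧸ Y.subgroupOf 𝐂(Y)) := by
  subst e
  have := Suz.simple
  have o := h.ord Nat.prime_three y11.1
  have m := Bt.evs_mem (clo_le.1 ((h.com y10.1).trans (cent_zpowers _).ge))
  have c : Nat.card 𝐂₁(ev g [45]) ≤ 1345036492800 := h.cc ([45], 1345036492800) List.mem_cons_self
  obtain ⟨ψ, i⟩ : ∃ ψ : Spor.Suz →* 𝐂(zpowers (ev g [45])) ⧸ (zpowers (ev g [45])).subgroupOf _,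
      Function.Injective ψ := by
    have r : ∀ r ∈ Suz.rels, ev (fun i => QuotientGroup.mk' ((zpowers (ev g [45])).subgroupOf _) (sub _ m i)) r = 1 :=
      fun r hr => by
        rw [← map_ev]
        refine (QuotientGroup.eq_one_iff _).2 (mem_subgroupOf.2 ?_)
        obtain ⟨u, hu, e⟩ := inL_spec h.eq (lall_iff.1 y10.2.1 r hr)
        rw [coe_ev_sub, ev_evs, e, ← clo_single]
        exact ev_mem_clo_of_wordIn ((by decide +kernel : ∀ u ∈ w3, wordIn [[45]] u = true) u hu)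
    have e := Suz.cox.lift_cg r (fun i hi => by rw [show sub _ m i = 1 from Subtype.ext (evs_eq_one hi), map_one]) 0
    refine ⟨Suz.cox.lift r, injective_of_simple (g' := 1) (e.trans_ne fun t => ?_)⟩
    have n := outL_spec h.ne y10.2.2.1
    simp only [w3, List.forall_mem_cons] at n
    rcases zp3 o (mem_subgroupOf.1 ((QuotientGroup.eq_one_iff _).1 (t.trans (map_one _)))) with t | t | t
    exacts [n.1 t, n.2.1 t, n.2.2.1 (t.trans (ev_lapp g [45] [45]).symm)]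
  have d := card_eq_card_quotient_mul_card_subgroup ((zpowers (ev g [45])).subgroupOf 𝐂(zpowers (ev g [45])))
  rw [card_sub_of (le_centralizer _), Nat.card_zpowers, o] at d
  rw [← cent_zpowers] at c
  have s := Suz.card
  let ι := MulEquiv.ofBijective _ (i.bijective_of_nat_card_le (by omega))
  refine ⟨quasisimple_of (fun x hx => ⟨mem_center_iff.2 fun b => Subtype.ext (b.2 _ hx).symm, ?_⟩)
    (ι.isSimpleGroup_congr.1 this) (by rw [← Nat.card_congr ι.toEquiv, s]; norm_num), ⟨ι.symm⟩⟩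
  obtain ⟨n, hn⟩ := hx
  obtain ⟨w, t⟩ : ∃ w, ((ev (sub _ m) w : 𝐂(zpowers (ev g [45]))) : G) = ev g [45] :=
    ⟨_, (coe_ev_sub m _).trans ((ev_evs _ _).trans (h.eq _ _ y10.2.2.2.2))⟩
  rw [show x = ev (sub _ m) w ^ n from Subtype.ext (hn.symm.trans (congrArg (· ^ n) t.symm))]
  refine zpow_mem (mem_commutator_of_sq (fun i => Subtype.ext ?_) (Subtype.ext ?_)) n
  · exact (nth_mem_or [] g3 i).elim (fun k => (ev_lapp g _ _).symm.trans (h.eq _ _ (lall_iff.1 y10.2.2.2.1 _ k)))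
      fun k => by change ev g _ * ev g _ = 1; rw [k]; exact mul_one _
  · rw [coe_pow, t, ← o]; exact pow_orderOf_eq_one _

theorem a7 : ∃ V : Subgroup G, Nat.card V = 7 ∧
    Nonempty (𝐂(V) ≃* Multiplicative (ZMod 7) × alternatingGroup (Fin 7)) := by
  have o := h.ord (by norm_num) y11.2.2.1
  obtain ⟨-, -, -, -, -, -, -, k1, k2, -, k3⟩ := y12
  obtain ⟨α, iα, rα⟩ := exists_cyc o
  obtain ⟨β, iβ, l⟩ := exists_alt h.eq (by decide) k3 (h.ne _ _ k1) ((clo_mono (by decide +kernel)).trans (h.com k2))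
  obtain ⟨φ, i, r, -⟩ := exists_prod iα iβ (rα ▸ zpowers_le.2 fun x hx => mem_c1.1 (l hx))
    (alternatingGroup.center_eq_bot (by simp))
  refine ⟨_, (Nat.card_zpowers _).trans o, ⟨(MulEquiv.subgroupCongr ((cent_zpowers _).trans
    (CF.Cod.range_eq_of_card i (r ▸ sup_le (rα ▸ zpowers_le.2 (mem_c1.2 rfl)) l) ?_).symm)).trans
    (MonoidHom.ofInjective i).symm⟩⟩
  rw [Nat.card_prod, card_alt]
  exact (h.cc ([91], 17640) (by simp)).trans (by simp [Nat.factorial])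

theorem a9 : ∃ W : Subgroup G, Nat.card W = 3 ∧
    Nonempty (𝐍(W) ≃* Equiv.Perm (Fin 3) × alternatingGroup (Fin 9)) := by
  obtain ⟨-, -, -, k1, k2, k3⟩ := y11
  have o1 := h.ord Nat.prime_two k1
  have o2 := h.ord Nat.prime_two k2
  have o := h.ord Nat.prime_three k3
  have c := h.cc ([121, 123], 544320) (by simp)
  rw [show ev g [121, 123] = ev g [121] * ev g [123] from ev_lapp g [121] [123]] at o c
  obtain ⟨α, iα, rα⟩ := exists_inj_of_equiv ((o ▸ Invol.nonempty_closure_pair_equiv_dihedral o1 o2).elim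
    fun a => Known.dihedral_equiv_perm.map a.trans)
  obtain ⟨β, iβ, l⟩ := exists_alt h.eq (by decide) y14.2.1 (h.ne _ _ y14.2.2) (h.eq.comAll y14.1)
  have e : clo g [[121], [123]] = α.range := by
    rw [rα, clo]; congr 1; ext; simp [eq_comm]
  generalize ev g [121] = s, ev g [123] = t at *
  have ss : s * s = 1 := (pow_two s).symm.trans (o1 ▸ pow_orderOf_eq_one s)
  have tt : t * t = 1 := (pow_two t).symm.trans (o2 ▸ pow_orderOf_eq_one t)
  obtain ⟨φ, i, r, -⟩ := exists_prod iα iβ (le_centralizer_iff.1 (e ▸ l)) (alternatingGroup.center_eq_bot (by simp))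
  have n : ∀ x, x * (s * t) * x⁻¹ = (s * t)⁻¹ → x ∈ 𝐍(zpowers (s * t)) := fun x k => mem_normalizer_fintype (by
    rintro _ ⟨n, rfl⟩
    rw [← conj_zpow, k]
    exact zpow_mem (inv_mem (mem_zpowers _)) n)
  refine ⟨zpowers (s * t), (Nat.card_zpowers _).trans o, ⟨(MulEquiv.subgroupCongr
    (CF.Cod.range_eq_of_card i (r.trans_le (sup_le (rα.trans_le ((closure_le _).2 ?_)) ?_)) ?_).symm).trans
    (MonoidHom.ofInjective i).symm⟩⟩
  · rintro _ (rfl | rfl) <;> apply n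
    · rw [← mul_assoc, ss, one_mul, mul_inv_rev, inv_eq_of_mul_eq_one_right tt]
    · rw [mul_assoc, mul_inv_cancel_right, mul_inv_rev, inv_eq_of_mul_eq_one_right tt, inv_eq_of_mul_eq_one_right ss]
  · refine l.trans ((centralizer_le ?_).trans (centralizer_le_normalizer _))
    rw [e, rα]
    exact zpowers_le.2 (mul_mem (subset_closure (by simp)) (subset_closure (by simp)))
  · rw [Nat.card_prod, card_alt]
    refine (card_le_of_conj_mem [s * t, s * t * (s * t)] (fun x hx => ?_)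
      ((card_le_of_le inf_le_right).trans c)).trans (by simp [Nat.factorial, Fintype.card_perm])
    rcases zp3 o (conj_mem_of_mem_normalizer hx (mem_zpowers _)) with k | k | k
    · rw [orderOf_of_conj k, orderOf_one] at o; cases o
    all_goals simp [k]

theorem j2 {B : Subgroup G} (e : zpowers (ev g [71]) = B) : Spor.IsoJ2 (layer 𝐂(B)) ∧
    Nonempty (𝐂((layer 𝐂(B)).map (𝐂(B)).subtype) ≃* alternatingGroup (Fin 5)) := by
  subst e
  have := P2.simpleP
  have o := h.ord (by norm_num) y11.2.1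
  obtain ⟨k1, k2, k3, k4, k5, k6, k7, k8, k9, k10, -⟩ := y12
  obtain ⟨β, e⟩ := hom_of_bound (k := evs g g5) P2.ptop (P2.cardP ▸ bnd2 fun r hr => Prod.ext
    ((map_ev (MonoidHom.fst _ _) (fun i => (pg P2.N i, evs g g5 i)) r).trans (P2.prels r hr))
    ((map_ev (MonoidHom.snd _ _) (fun i => (pg P2.N i, evs g g5 i)) r).trans (rls_spec h.eq k2 r hr)))
  have iβ : Function.Injective β := (MonoidHom.ker_eq_bot_iff β).1 (β.normal_ker.eq_bot_or_eq_top.resolve_right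
    fun t => h.ne _ _ k3 ((ev_single (evs g g5) 0).symm.trans ((e [1] (by decide)).symm.trans (t.ge (mem_top _)))))
  have rβ : β.range = clo g g5 := by
    rw [MonoidHom.range_eq_map, ← P2.ptop, show g5 = lmap (subst g5) G7 by decide +kernel, ← clo_evs, clo, clo,
      MonoidHom.map_closure, Set.image_image]
    exact congrArg _ (Set.image_congr e)
  obtain ⟨α, iα, rα⟩ := exists_cyc o
  have l : β.range ≤ 𝐂₁(ev g [71]) := rβ ▸ h.com k1
  have nc : ¬ IsMulCommutative (PG P2.N) := fun k => by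
    let _ : CommGroup (PG P2.N) := { mul_comm := k.1.1 }
    exact absurd (P2.cardP ▸ IsSimpleGroup.prime_card) (by norm_num)
  have cm : ∀ a b, Commute (α a) (β b) := fun a b => ((cent_zpowers _).ge (l ⟨b, rfl⟩) _ (rα.le ⟨a, rfl⟩) :)
  have r : α.range ⊔ β.range = 𝐂(zpowers (ev g [71])) := by
    obtain ⟨φ, i, r, -⟩ := exists_prod iα iβ (rα ▸ zpowers_le.2 fun x hx => mem_c1.1 (l hx))
      ((normal_of_characteristic _).eq_bot_or_eq_top.resolve_right fun k => nc ⟨⟨fun a b =>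
        mem_center_iff.1 (k.ge (mem_top b)) a⟩⟩)
    rw [cent_zpowers, ← r]
    refine CF.Cod.range_eq_of_card i (r ▸ sup_le (rα ▸ zpowers_le.2 (mem_c1.2 rfl)) l) ?_
    rw [Nat.card_prod, P2.cardP]
    exact (h.cc ([71], 3024000) (by simp)).trans (by simp)
  have le := le_sup_right.trans r.le
  have n : 𝐂(zpowers (ev g [71])) ≤ 𝐍(β.range) := r.ge.trans (sup_le ((le_centralizer_iff.1 (rα ▸ le)).trans
    (centralizer_le_normalizer _)) le_normalizer)
  have t : layer 𝐂(zpowers (ev g [71])) = β.range.subgroupOf _ := by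
    have := (normal_subgroupOf_iff_le_normalizer le).2 n
    refine le_antisymm (sSup_le fun K hK => (Sig.qs_perfect hK.2).ge.trans ((commutator_mono le_top le_top).trans
      (commutator_le.2 fun x _ y _ => mem_subgroupOf.2 ?_))) (le_sSup ⟨this.isSubnormal, Sig.qs_of_mulEquiv
        (Sig.qs_of_isSimpleGroup nc) ((MonoidHom.ofInjective iβ).trans (subgroupOfEquivOfLe le).symm)⟩)
    obtain ⟨⟨a, b⟩, k⟩ := (MonoidHom.noncommCoprod_range α β cm).ge (r.ge x.2)
    obtain ⟨⟨c, d⟩, k'⟩ := (MonoidHom.noncommCoprod_range α β cm).ge (r.ge y.2)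
    refine ⟨b * d * b⁻¹ * d⁻¹, ?_⟩
    change _ = (x : G) * y * (x : G)⁻¹ * (y : G)⁻¹
    rw [← k, ← k', ← map_inv, ← map_inv, ← map_mul, ← map_mul, ← map_mul]
    simp [mul_comm a c, mul_assoc]
  rw [t, subgroupOf_map_subtype, inf_eq_left.2 le, rβ]
  obtain ⟨γ, i, m⟩ := exists_alt h.eq (by decide) k7 (h.ne _ _ k8) (h.eq.comAll k6)
  refine ⟨⟨((subgroupOfEquivOfLe (rβ ▸ le)).trans ((MulEquiv.subgroupCongr rβ.symm).trans
    (MonoidHom.ofInjective iβ).symm)).trans J2.eqv.symm⟩,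
    ⟨(MulEquiv.subgroupCongr (CF.Cod.range_eq_of_card i m ?_).symm).trans (MonoidHom.ofInjective i).symm⟩⟩
  obtain ⟨ρ, b, -⟩ := h.bm
  have c := cl_card 𝐂₁(ev g [91]) (ev g [85])
  have c1 := Nat.mul_le_mul (cl_ge b (fun q hq => h.com k9 (ev_mem_clo_of_wordIn (lall_iff.1 k10 q hq))) y13)
    (card_le_of_le (H := 𝐂(clo g g5)) (K := 𝐂₁(ev g [91]) ⊓ 𝐂₁(ev g [85])) fun x hx =>
      ⟨mem_c1.2 (hx _ (h.eq _ _ k5 ▸ ev_mem_clo_of_wordIn k4)).symm, mem_c1.2 (hx _ (ev_mem_clo _ (by decide))).symm⟩)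
  have c2 := h.cc ([91], 17640) (by simp)
  rw [card_alt]
  change _ ≤ 60
  change Nat.card 𝐂₁(ev g [91]) ≤ 17640 at c2
  omega

end Md

theorem bridge [Finite G] {z : G} (hz : orderOf z = 2) (Q : Subgroup 𝐂₁(z)) [Q.Normal]
    (hF : generalizedFittingSubgroup 𝐂₁(z) = Q) (hQ : IsExtraspecial 2 Q) (hc : Nat.card Q = 2 ^ 9)
    (e : 𝐂₁(z) ⧸ Q ≃* Cfsg.Omega (ZMod 2) (Cfsg.quadFormPlus 4 (ZMod 2)))
    (h : ∃ g : G, (∃ hq : g * z * g⁻¹ ∈ 𝐂₁(z), (⟨g * z * g⁻¹, hq⟩ : 𝐂₁(z)) ∈ Q) ∧ g * z * g⁻¹ ≠ z) :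
    ∃ g, Md g ∧ ev g [27] = z ∧ clo g sq = Q.map (𝐂₁(z)).subtype := by
  obtain ⟨φ, k⟩ := of_hyp hz Q hF hQ hc e h
  have m := mdX.map φ
  have e : ev (fun i => φ (GX i)) [27] = z := (map_ev φ.toMonoidHom GX _).symm.trans (z_eq ▸ k)
  refine ⟨_, m, e, eq_of_le_of_card_ge ((le_pCoreOf (IsPGroup.of_card m.cq) (e ▸ m.com y6.2.2.2.2.1)
    (e ▸ m.nq)).trans (lq_of_fstar hz (by rw [hF]) (isExtraspecial_of_equiv hQ
      (Q.equivMapOfInjective _ (subtype_injective _)))).2.ge) ?_⟩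
  rw [m.cq, card_map_of_injective (subtype_injective _), hc]

theorem Md.move {g : ℕ → G} (h : Md g) {x u : G} {w : List ℕ} (e : u * x * u⁻¹ = ev g w) :
    ∃ g', Md g' ∧ ev g' w = x :=
  ⟨_, h.map (MulAut.conj u⁻¹), (map_ev (MulAut.conj u⁻¹).toMonoidHom g w).symm.trans (by
    rw [← e]; simp [mul_assoc])⟩

end CF.XT.CoO
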