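import Cfsg.Agent.XT.Cj
import Cfsg.Agent.XT.Nrm
import Cfsg.Agent.Known.Pres.Carm

/-! Counting different matrices over the field with two elements. -/

set_option autoImplicit false

namespace CF.XT

open CF.Comp CF.Bt CF.Schur.Pc CF.Loc CF.LX Subgroup
open scoped commutatorElement

variable {G : Type*} [Group G] {d : ℕ} {ρ : G →* Matrix (Fin d) (Fin d) (ZMod 2)} {ms : List ℕ} {f : ℕ → G}

/-- the number of different values -/
noncomputable def disK (d : ℕ) (ms : List ℕ) (ws : List (List ℕ)) : List ℕ → ℕ :=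
  List.rec (motive := fun _ => List ℕ → ℕ) llen
    (fun w _ ih l => force (bev d ms w) fun a => Bool.rec (ih l) (ih (a :: l)) (lall (bneV d a) l)) ws

theorem disK_le (h : BM ρ ms f) {s : Set G} (hs : s.Finite) {ws : List (List ℕ)} (hw : ∀ w ∈ ws, ev f w ∈ s)
    {l : List ℕ} {T : Finset G} (h1 : ↑T ⊆ s) (h2 : T.card = l.length) (h3 : ∀ x ∈ T, ∃ a ∈ l, ρ x = bm d a) :
    disK d ms ws l ≤ s.ncard := by
  classical
  induction ws generalizing l T with
  | nil => exact (llen_eq l).trans_le (h2.ge.trans ((Set.ncard_coe_finset T).ge.trans (Set.ncard_le_ncard h1 hs)))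
  | cons w t ih =>
    rw [List.forall_mem_cons] at hw
    rw [show disK d ms (w :: t) l = force (bev d ms w) fun a =>
      Bool.rec (disK d ms t l) (disK d ms t (a :: l)) (lall (bneV d a) l) from rfl, force_eq]
    cases e : lall (bneV d (bev d ms w)) l
    · exact ih hw.2 h1 h2 h3
    · refine ih hw.2 (T := insert (ev f w) T) (by rw [Finset.coe_insert]; exact Set.insert_subset hw.1 h1)
        (by rw [Finset.card_insert_of_notMem fun k => (h3 _ k).elim fun a k =>
          bm_ne (lall_iff.1 e a k.1) ((h.ev w).symm.trans k.2), h2]; rfl) fun x hx => ?_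
      rcases Finset.mem_insert.1 hx with rfl | hx
      exacts [⟨_, List.mem_cons_self, h.ev w⟩, (h3 x hx).imp fun a k => ⟨List.mem_cons_of_mem _ k.1, k.2⟩]

theorem dis_le (h : BM ρ ms f) {s : Set G} (hs : s.Finite) {ws : List (List ℕ)} (hw : ∀ w ∈ ws, ev f w ∈ s)
    {k : ℕ} (ok : Nat.ble k (disK d ms ws []) = true) : k ≤ s.ncard :=
  (ble_iff.1 ok).trans (disK_le h hs hw (T := ∅) (by simp) rfl (by simp))

theorem card_pc [Finite G] (h : BM ρ ms f) {p : ℕ} (hp : p ≠ 0) {ss us : List (List ℕ)} (pc : Pc f p ss)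
    (hu : lall (wordIn ss) us = true) (ok : Nat.ble (p ^ ss.length) (disK d ms us []) = true) :
    Nat.card (clo f ss) = p ^ ss.length :=
  (pc.card_le hp).antisymm (dis_le h (s := clo f ss) (Set.toFinite _)
    (fun w hw => ev_mem_clo_of_wordIn (lall_iff.1 hu w hw)) ok)

/-- the conjugates under a subgroup -/
def cl (K : Subgroup G) (x : G) : Set G := {y | ∃ k ∈ K, k * x * k⁻¹ = y}

theorem cl_card (K : Subgroup G) (x : G) : Nat.card K = (cl K x).ncard * Nat.card ↥(K ⊓ 𝐂₁(x)) := by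
  let _ := MulAction.compHom G (MulAut.conj (G := G))
  rw [card_eq_orb_mul K x, show stabIn K x = K ⊓ 𝐂₁(x) from Subgroup.ext fun g =>
    and_congr_right fun _ => conj_eq_iff.trans mem_c1.symm]
  rfl

theorem cl_le [Finite G] (K : Subgroup G) (x : G) : (cl K x).ncard ≤ Nat.card ↥⁅K, zpowers x⁆ :=
  Set.ncard_le_ncard_of_injOn (· * x⁻¹) (t := (⁅K, zpowers x⁆ : Subgroup G)) (by
    rintro _ ⟨k, hk, rfl⟩
    exact commutator_mem_commutator hk (mem_zpowers x)) fun _ _ _ _ e => mul_right_cancel e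

theorem cl_ge [Finite G] (h : BM ρ ms f) {K : Subgroup G} {qs : List (List ℕ)} (hq : ∀ q ∈ qs, ev f q ∈ K)
    {w : List ℕ} {k : ℕ} (ok : Nat.ble k (disK d ms (lmap (fun q => cjW q w) qs) []) = true) :
    k ≤ (cl K (ev f w)).ncard :=
  dis_le h (Set.toFinite _) (fun v hv => by
    rw [lmap_eq, List.mem_map] at hv
    obtain ⟨q, m, rfl⟩ := hv
    exact ⟨_, hq q m, (ev_cjW _ _).symm⟩) ok

/-- the elements of the group `ss` are conjugate to `a` or have many conjugates -/
noncomputable def sylOK (d : ℕ) (ms : List ℕ) (p k : ℕ) (ss qs cs : List (List ℕ)) (a : List ℕ) : Bool :=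
  pcAll p (fun w => bor (leq w []) (bor (Nat.ble k (disK d ms (lmap (fun q => cjW q w) qs) []))
    (lany (fun c => bsame d ms (cjW c w) a) cs))) ss

theorem syl_conj [Finite G] (h : BM ρ ms f) (inj : Function.Injective ρ) {p k m : ℕ} (hp : p.Prime)
    {ss qs cs : List (List ℕ)} {a : List ℕ} (ok : sylOK d ms p k ss qs cs a = true) (pc : Pc f p ss)
    {H Q : Subgroup G} (l : clo f ss ≤ H) (c : Nat.card H = Nat.card (clo f ss) * m) (hm : ¬ p ∣ m)
    (n : H ≤ 𝐍(Q)) (hq : ∀ q ∈ qs, ev f q ∈ Q) {x : G} (hx : x ∈ H) (o : orderOf x = p)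
    (lt : (cl Q x).ncard < k) : ∃ u, u * x * u⁻¹ = ev f a := by
  obtain ⟨u, hu, e⟩ := exists_conj_mem l hp c hm hx (a := 1) (by rw [pow_one, ← o, pow_orderOf_eq_one])
  obtain ⟨w, e, b⟩ := pc.all hp.ne_zero ok _ e
  simp only [bor_iff] at b
  rcases b with b | b | b
  · rw [orderOf_of_conj e.symm, leq_iff.1 b, ev_nil, orderOf_one] at o
    exact absurd o hp.one_lt.ne
  · refine absurd ((cl_ge h hq b).trans (Set.ncard_le_ncard_of_injOn (fun y => u⁻¹ * y * u) ?_
      fun _ _ _ _ k => by simpa using k)) lt.not_ge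
    rintro _ ⟨q, hq, rfl⟩
    exact ⟨_, conj_mem_of_mem_normalizer (inv_mem (n hu)) hq, by rw [e]; group⟩
  · obtain ⟨v, -, b⟩ := lany_iff.1 b
    exact ⟨ev f v * u, by rw [← h.same inj _ _ b, ev_cjW, e]; group⟩

/-- the relations of Carmichael -/
noncomputable def carm (eq : List ℕ → List ℕ → Bool) (ws : List (List ℕ)) (n : ℕ) : Bool :=
  allFrom (fun i => Bool.rec false (allFrom (fun j => bor (Nat.beq i j)
    (eq (wpow (lapp (nth [] ws i) (nth [] ws j)) 2) [])) 0 n) (eq (wpow (nth [] ws i) 3) [])) 0 n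

theorem exists_alt {eq : List ℕ → List ℕ → Bool} (he : Eqv f eq) {ws : List (List ℕ)} {n : ℕ} (hn : 2 < n)
    (ok : carm eq ws n = true) (h1 : evs f ws 0 ≠ 1) {H : Subgroup G} (hH : clo f ws ≤ H) :
    ∃ β : alternatingGroup (Fin (n + 2)) →* G, Function.Injective β ∧ β.range ≤ H := by
  have := alternatingGroup.isSimpleGroup (α := Fin (n + 2)) (by simp; omega)
  have m := Bt.evs_mem (clo_le.1 hH)
  have k : ∀ i ∈ ({0, 1}ᶜ : Finset (Fin (n + 2))), 2 ≤ i.1 := fun i hi => by
    simp only [Finset.mem_compl, Finset.mem_insert, Finset.mem_singleton, Fin.ext_iff, Fin.val_zero, Fin.val_one] at hi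
    omega
  obtain ⟨ψ, e⟩ := Known.Pres.CarmRel.exists_hom (α := (0 : Fin (n + 2))) (β := 1) (by simp) (T := {0, 1}ᶜ)
    (S := Finset.univ) (by simp) (by simp) (by ext i; by_cases h : i = 0 <;> simp [h, em]) (H := H)
    (y := fun i => sub _ m (i - 2)) ⟨fun i _ => Subtype.ext ((ev_wpow f _ 3).symm.trans
      (he _ _ (and_of_rec (allFrom_zero.1 ok (i - 2) (by omega))).1)), fun i hi j hj ne => Subtype.ext (by
        have := bor_iff.1 (allFrom_zero.1 (and_of_rec (allFrom_zero.1 ok (i - 2) (by omega))).2 (j - 2) (by omega))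
        refine this.elim (fun e => absurd (Fin.ext ?_) ne) fun e => ?_
        · have := beq_iff.1 e
          have := k i hi
          have := k j hj
          omega
        · have := he _ _ e
          rwa [ev_wpow, ev_lapp] at this)⟩
  let β := ψ.comp (MulEquiv.subgroupCongr Known.Pres.altOn_univ).symm.toMonoidHom
  refine ⟨H.subtype.comp β, (subtype_injective _).comp ((MonoidHom.ker_eq_bot_iff β).1
    (β.normal_ker.eq_bot_or_eq_top.resolve_right fun c => h1 ?_)), by rintro _ ⟨x, rfl⟩; exact (β x).2⟩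
  have t : (⟨2, by omega⟩ : Fin (n + 2)) ∈ ({0, 1}ᶜ : Finset (Fin (n + 2))) := by simp [Fin.ext_iff]
  have s := Known.Pres.c3_mem (Finset.mem_univ (0 : Fin (n + 2))) (Finset.mem_univ 1) (Finset.mem_univ ⟨2, by omega⟩)
    (by simp [Fin.ext_iff]) (by simp [Fin.ext_iff])
  exact congrArg Subtype.val ((e _ t s).symm.trans (c.ge (mem_top ⟨_, Known.Pres.altOn_univ.le s⟩)))

theorem card_alt (n : ℕ) : Nat.card (alternatingGroup (Fin (n + 2))) = (n + 2).factorial / 2 := by
  rw [Nat.card_eq_fintype_card, card_alternatingGroup, Fintype.card_fin]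

theorem mem_commutator_of_sq {g : ℕ → G} (h : ∀ i, g i * g i = 1) {w : List ℕ} (e : ev g w ^ 3 = 1) :
    ev g w ∈ commutator G := by
  have k : ev g w ∈ (powMonoidHom 2).ker.comap Abelianization.of := ev_mem (fun i => by
    rw [mem_comap, MonoidHom.mem_ker, powMonoidHom_apply, ← map_pow, pow_two, h, map_one]) w
  rw [mem_comap, MonoidHom.mem_ker, powMonoidHom_apply, ← map_pow] at k
  rw [← Abelianization.ker_of, MonoidHom.mem_ker, ← one_mul (Abelianization.of _)]
  exact (congrArg (· * _) k.symm).trans (by rw [← map_mul, ← pow_succ, e, map_one])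

end CF.XT
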